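import Cfsg.Agent.H56.OmegaFin

/-! Crossed homomorphisms from the commutator subgroup of an orthogonal group over the field with
two elements into the natural module. -/

set_option autoImplicit false

namespace H78
open H56 QuadraticMap

variable {V : Type*} [AddCommGroup V] [Module (ZMod 2) V] [FiniteDimensional (ZMod 2) V]
  {Q : QuadraticForm (ZMod 2) V} {f : O Q → V}

omit [FiniteDimensional (ZMod 2) V] in
theorem refl_two {a : V} (ha : Q a = 1) (v : V) : refl Q a v = v + polar Q a v • a := by
  rw [refl_apply, ha, inv_one, one_mul, sub_eq_add_neg, ← neg_smul, ZMod.neg_eq_self_mod_two]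

omit [FiniteDimensional (ZMod 2) V] in
theorem polar_two (a : V) : polar Q a a = 0 := by
  rw [polar_self', show (2 : ZMod 2) = 0 from rfl, zero_mul]

variable (nd : Q.polarBilin.Nondegenerate)
  (hf : ∀ g ∈ commutator (O Q), ∀ k ∈ commutator (O Q), f (g * k) = f g + g (f k))
include nd

theorem rr_mem {a b : V} (ha : Q a = 1) (hb : Q b = 1) : refl Q a * refl Q b ∈ commutator (O Q) :=
  refl_mul_refl_mem_commutator nd (by simp [ha]) (by simp [hb]) (by rw [ha, hb])

include hf

omit nd [FiniteDimensional (ZMod 2) V] in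
theorem coc_one : f 1 = 0 := by simpa using hf 1 (one_mem _) 1 (one_mem _)

theorem coc_edge {a b : V} (ha : Q a = 1) (hb : Q b = 1) (h : polar Q a b = 1) :
    ∃ s t : ZMod 2, f (refl Q a * refl Q b) = (s + t) • a + t • b := by
  have m := rr_mem nd ha hb
  have e := hf _ m _ (mul_mem m m)
  rw [hf _ m _ m, show refl Q a * refl Q b * (refl Q a * refl Q b * (refl Q a * refl Q b)) = 1 from
    O.ext fun v => by
      simp only [O.mul_apply, O.one_apply, refl_two ha, refl_two hb, polar_add_right,
        polar_smul_right, polar_two, h, polar_comm Q b a, smul_eq_mul]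
      generalize polar Q a v = x, polar Q b v = y
      match_scalars <;> revert x y <;> decide, coc_one hf] at e
  generalize f _ = u at e
  simp only [O.mul_apply, refl_two ha, refl_two hb, polar_add_right,
    polar_smul_right, polar_two, h, polar_comm Q b a, smul_eq_mul] at e
  generalize polar Q a u = x, polar Q b u = y at e
  refine ⟨x + y, x, ?_⟩
  linear_combination (norm := skip) e
  clear e
  match_scalars <;> revert x y <;> decide

theorem coc_path {a b c : V} (ha : Q a = 1) (hb : Q b = 1) (hc : Q c = 1) (h1 : polar Q a b = 1)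
    (h2 : polar Q b c = 1) (h3 : polar Q a c = 0) (h4 : a ≠ c) {s t s' t' : ZMod 2}
    (e1 : f (refl Q a * refl Q b) = (s + t) • a + t • b)
    (e2 : f (refl Q b * refl Q c) = (s' + t') • b + t' • c) : t = s' := by
  have m := rr_mem nd ha hc
  have e := hf _ m _ m
  have e3 := hf _ (rr_mem nd ha hb) _ (rr_mem nd hb hc)
  rw [mul_assoc, ← mul_assoc (refl Q b), refl_mul_self, one_mul, e1, e2] at e3
  have k : refl Q a * refl Q c = refl Q c * refl Q a := by rw [mul_refl, refl_apply_of_orth h3]
  nth_rewrite 2 [k] at e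
  rw [mul_assoc, ← mul_assoc (refl Q c), refl_mul_self, one_mul, refl_mul_self, coc_one hf, e3] at e
  simp only [O.mul_apply, refl_two ha, refl_two hb, refl_two hc, polar_add_right, polar_smul_right,
    polar_two, h1, h2, h3, polar_comm Q c a, polar_comm Q c b, smul_eq_mul] at e
  by_contra n
  obtain rfl : t = s' + 1 := by revert n; generalize t = t, s' = s'; revert t s'; decide
  refine h4 ?_
  linear_combination (norm := skip) e
  clear e e1 e2 e3 n
  match_scalars <;> revert s s' t' <;> decide

theorem coc_main {N : ℕ} (a w : ℕ → V) (p : ℕ → ℕ) (h0 : 1 < N) (hq : ∀ i < N, Q (a i) = 1)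
    (hp : ∀ i < N, 0 < i → p i < i ∧ polar Q (a (p i)) (a i) = 1 ∧ (i = 1 ∨ 0 < p i ∧
      polar Q (a (p (p i))) (a i) = 0 ∧ a (p (p i)) ≠ a i))
    (hw : ∀ i < N, ∀ j < N, polar Q (a i) (w j) = if j = i then 1 else 0)
    (gen : ∀ H : Subgroup (O Q), (∀ i < N, refl Q (a i) ∈ H) → H = ⊤) :
    ∃ v, ∀ g ∈ commutator (O Q), f g = g v - v := by
  choose! s t e using fun i (h : i < N) (h' : 0 < i) =>
    coc_edge nd hf (hq _ ((hp i h h').1.trans h)) (hq i h) (hp i h h').2.1
  obtain ⟨v, hv⟩ : ∃ v, ∀ i < N, polar Q (a i) v = if i = 0 then s 1 else t i :=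
    ⟨∑ j ∈ Finset.range N, (if j = 0 then s 1 else t j) • w j, fun i hi => by
      rw [← polarBilin_apply_apply, map_sum, Finset.sum_eq_single i (fun j hj c => by
        rw [map_smul, polarBilin_apply_apply, hw i hi j (Finset.mem_range.1 hj), if_neg c, smul_zero])
        fun c => absurd (Finset.mem_range.2 hi) c,
        map_smul, polarBilin_apply_apply, hw i hi i hi, if_pos rfl, smul_eq_mul, mul_one]⟩
  let K : Subgroup (O Q) :=
    { carrier := {g | g ∈ commutator (O Q) ∧ f g = g v - v}
      one_mem' := ⟨one_mem _, by rw [coc_one hf, O.one_apply, sub_self]⟩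
      mul_mem' := fun a b => ⟨mul_mem a.1 b.1, by
        rw [hf _ a.1 _ b.1, a.2, b.2, map_sub, O.mul_apply]; abel⟩
      inv_mem' := fun {g} a => ⟨inv_mem a.1, by
        have := hf _ (inv_mem a.1) _ a.1
        rw [inv_mul_cancel, coc_one hf, a.2, map_sub, O.inv_apply_apply] at this
        rw [eq_neg_of_add_eq_zero_left this.symm, neg_sub]⟩ }
  have k : ∀ i < N, refl Q (a 0) * refl Q (a i) ∈ K := fun i => by
    induction i using Nat.strong_induction_on with | _ i ih => ?_
    intro hi
    rcases i.eq_zero_or_pos with rfl | h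
    · rw [refl_mul_self]; exact K.one_mem
    obtain ⟨p1, p2, p3⟩ := hp i hi h
    have := K.mul_mem (ih _ p1 (p1.trans hi)) (show refl Q (a (p i)) * refl Q (a i) ∈ K from
      ⟨rr_mem nd (hq _ (p1.trans hi)) (hq i hi), by
        have : polar Q (a (p i)) v = s i := by
          rw [hv _ (p1.trans hi)]
          rcases p3 with rfl | ⟨p3, p4, p5⟩
          · rw [if_pos (by omega)]
          · obtain ⟨q1, q2, -⟩ := hp _ (p1.trans hi) p3
            rw [if_neg p3.ne', coc_path nd hf (hq _ (by omega)) (hq _ (by omega)) (hq i hi) q2 p2 p4 p5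
              (e _ (by omega) p3) (e i hi h)]
        rw [e i hi h, O.mul_apply, refl_two (hq i hi), refl_two (hq _ (p1.trans hi)), polar_add_right,
          polar_smul_right, this, hv i hi, if_neg h.ne', p2]
        module⟩)
    rwa [mul_assoc, ← mul_assoc (refl Q (a (p i))), refl_mul_self, one_mul] at this
  refine ⟨v, fun g hg => ?_⟩
  have h : g ∈ K ∨ refl Q (a 0) * g ∈ K := by
    have : g ∈ Subgroup.closure {r | ∃ i < N, r = refl Q (a i)} := by
      rw [gen (Subgroup.closure {r | ∃ i < N, r = refl Q (a i)}) fun i hi =>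
        Subgroup.subset_closure ⟨i, hi, rfl⟩]; trivial
    have m : ∀ i < N, ∀ g, g ∈ K ∨ refl Q (a 0) * g ∈ K →
        refl Q (a i) * g ∈ K ∨ refl Q (a 0) * (refl Q (a i) * g) ∈ K := fun i hi g h =>
      h.symm.imp (fun h => by
        simpa [mul_assoc, ← mul_assoc (refl Q (a 0))] using K.mul_mem (K.inv_mem (k i hi)) h)
        fun h => mul_assoc _ _ g ▸ K.mul_mem (k i hi) h
    clear hg
    induction this using Subgroup.closure_induction_left with
    | one => exact Or.inl K.one_mem
    | mul_left _ h _ _ ih => obtain ⟨i, hi, rfl⟩ := h; exact m i hi _ ih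
    | inv_mul_cancel _ h _ _ ih => obtain ⟨i, hi, rfl⟩ := h; rw [refl_inv]; exact m i hi _ ih
  refine (h.resolve_right fun c => ?_).2
  have := commutator_le_ker_dickson nd ((Subgroup.mul_mem_cancel_right _ hg).1 c.1)
  rw [MonoidHom.mem_ker, dickson_refl nd (by rw [hq 0 (by omega)]; decide)] at this
  exact absurd this (by decide)

omit hf in
theorem gen_of_ht (hE : ¬ IsExc Q) {N : ℕ} (a : ℕ → V) (ht : V → ℕ) (hq : ∀ i < N, Q (a i) = 1)
    (h : ∀ v, Q v ≠ 0 → ∃ i < N, v = a i ∨ polar Q (a i) v = 1 ∧ ht (v + a i) < ht v)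
    (H : Subgroup (O Q)) (hH : ∀ i < N, refl Q (a i) ∈ H) : H = ⊤ := by
  refine eq_top_of_refl_mem nd hE fun v => ?_
  induction e : ht v using Nat.strong_induction_on generalizing v with | _ n ih => ?_
  intro hv
  obtain ⟨i, hi, rfl | ⟨h1, h2⟩⟩ := h v hv
  · exact hH i hi
  have k : refl Q (a i) v = v + a i := by rw [refl_two (hq i hi), h1, one_smul]
  rw [← refl_refl (Q := Q) (a i) v, ← conj_refl, k]
  exact mul_mem (mul_mem (hH i hi) (ih _ (e ▸ h2) _ rfl (by rwa [← k, O.map_Q]))) (inv_mem (hH i hi))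

end H78
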